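import Cfsg.Agent.Y555.Centre
import Cfsg.Agent.Y555.Comm
import Cfsg.Agent.Y555.Octad
import Cfsg.Agent.Y555.Trans

/-!
In any group with sixteen involutions satisfying the Coxeter relations of Y₅₅₅ and the spider relation,
each end node is the ninth power of the Coxeter element of the opposite E₇.
-/

namespace Cfsg.Agent.Y555

variable {G : Type*} [Group G]

/-- the rotation of the three arms -/
def rot (i : ℕ) : ℕ := if i = 0 then 0 else (i - 1 + 5) % 15 + 1

theorem rot_facts : ∀ x, x < 16 → rot x < 16 ∧ (∀ y, y < 16 → adjB (rot x) (rot y) = adjB x y ∧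
    (x ≠ y → rot x ≠ rot y)) := by decide +kernel

/-- the Coxeter relations and the spider relation -/
structure Spider (v : ℕ → G) : Prop where
  rels : Rels v
  spider : ev v SP = 1

theorem Spider.rotate {v : ℕ → G} (h : Spider v) : Spider (fun x => v (rot x)) where
  rels :=
    { sq := fun x hx => h.rels.sq _ (rot_facts x hx).1
      comm := fun x y hx hy hne ha => h.rels.comm _ _ (rot_facts x hx).1 (rot_facts y hy).1
        (((rot_facts x hx).2 y hy).2 hne) (((rot_facts x hx).2 y hy).1.trans ha)
      braid := fun x y hx hy ha => h.rels.braid _ _ (rot_facts x hx).1 (rot_facts y hy).1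
        (((rot_facts x hx).2 y hy).1.trans ha) }
  spider := by
    have e : [0, 1, 2] ++ SP.map rot = SP ++ [0, 1, 2] := by decide +kernel
    have := congrArg (ev v) e
    rw [ev_append, ev_append, h.spider, one_mul] at this
    rw [ev_comp]
    exact mul_left_cancel (a := ev v [0, 1, 2]) (by rw [this, mul_one])

section

variable {v : ℕ → G}

theorem eq0 (hv : Rels v) {ns u w : List ℕ} (h : eqB [] ns u w = true) : ev v u = ev v w :=
  eq_sound hv (valid_nil v) h

theorem triv0 (hv : Rels v) {ns w : List ℕ} (h : trivB [] ns w = true) : ev v w = 1 :=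
  triv_sound hv (valid_nil v) h

theorem commute_of_check (hv : Rels v) {ns w : List ℕ} {g : ℕ}
    (h : eqB [] ns (g :: w) (w ++ [g]) = true) : Commute (v g) (ev v w) := by
  simpa [Commute, SemiconjBy, ev_append] using eq0 hv h

theorem root_relation (h : Spider v) : ev v l1X = 1 := by
  have hr : Valid v [(SP, []), (SP.reverse, [])] :=
    valid_cons (by simpa using h.spider)
      (valid_cons (by rw [ev_reverse h.rels (by decide +kernel), h.spider]; simp) (valid_nil v))
  have h1 := triv_sound h.rels hr l1_c1
  have h2 := triv0 h.rels l1_c2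
  rwa [ev_append, h1, mul_one] at h2

theorem centre_eq (h : Spider v) : ev v ZC = ev v ZW := by
  have hb := b_check
  unfold bCheck at hb
  split at hb
  · rename_i rs hrs
    have hv : Valid v rs := derive_sound h.rels
      (valid_cons (by simpa using h.spider)
        (valid_cons (by simpa using root_relation h) (valid_nil v))) hrs
    exact hv (ZC, ZW) (List.contains_iff_mem.mp hb)
  · cases hb

theorem vcentre_eq (h : Spider v) : ev v VW = ev v VC := by
  have := centre_eq h.rotate
  rw [ev_comp v rot ZC, ev_comp v rot ZW] at this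
  have e1 : ZC.map rot = VW := by decide +kernel
  have e2 : ZW.map rot = VC := by decide +kernel
  rwa [e1, e2] at this

theorem z_comm (h : Spider v) {g : ℕ} (hg : g ∈ [0, 1, 2, 3, 6, 7, 8, 9, 10, 11, 12, 13, 14, 15]) :
    Commute (v g) (ev v ZW) := by
  have e := centre_eq h
  have hv := h.rels
  fin_cases hg
  · exact commute_of_check hv zc0_check
  · exact commute_of_check hv zc1_check
  · exact commute_of_check hv zc2_check
  · exact commute_of_check hv zc3_check
  · exact commute_of_check hv zc6_check
  · exact commute_of_check hv zc7_check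
  · exact e ▸ commute_of_check hv zc8_check
  · exact commute_of_check hv zc9_check
  · exact commute_of_check hv zc10_check
  · exact commute_of_check hv zc11_check
  · exact e ▸ commute_of_check hv zc12_check
  · exact commute_of_check hv zc13_check
  · exact commute_of_check hv zc14_check
  · exact commute_of_check hv zc15_check

theorem v_comm (h : Spider v) {g : ℕ} (hg : g ∈ [0, 1, 2, 3, 4, 6, 7, 11]) :
    Commute (v g) (ev v VW) := by
  have e := vcentre_eq h
  have hv := h.rels
  fin_cases hg
  · exact commute_of_check hv vc0_check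
  · exact commute_of_check hv vc1_check
  · exact commute_of_check hv vc2_check
  · exact e.symm ▸ commute_of_check hv vc3_check
  · exact commute_of_check hv vc4_check
  · exact commute_of_check hv vc6_check
  · exact commute_of_check hv vc7_check
  · exact commute_of_check hv vc11_check

/-- `s = z (z e₁)³` -/
theorem sw_eq (hv : Rels v) : ev v ZW * ev v Z8 = ev v SW := by
  rw [← ev_append]; exact eq0 hv sz_check

theorem sw_comm (h : Spider v) {g : ℕ} (hg : g ∈ [0, 1, 2, 3, 6, 7, 8, 11, 12]) :
    Commute (v g) (ev v SW) := by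
  have hv := h.rels
  have key : ∀ g, Commute (v g) (ev v ZW) → Commute (v g) (v 4) → Commute (v g) (ev v SW) := by
    intro g h1 h4
    rw [← sw_eq hv]
    simp only [Z8, ev_append, ev_cons, ev_nil, mul_one]
    exact h1.mul_right (((((h1.mul_right h4).mul_right h1).mul_right h4).mul_right h1).mul_right h4)
  fin_cases hg
  · exact commute_of_check hv sc0_check
  · exact commute_of_check hv sc1_check
  · exact commute_of_check hv sc2_check
  · exact commute_of_check hv sc3_check
  · exact commute_of_check hv sc6_check
  · exact commute_of_check hv sc7_check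
  · exact key 8 (z_comm h (by decide)) (hv.comm 8 4 (by decide) (by decide) (by decide) (by decide))
  · exact commute_of_check hv sc11_check
  · exact key 12 (z_comm h (by decide)) (hv.comm 12 4 (by decide) (by decide) (by decide) (by decide))

theorem ev_flatten (v : ℕ → G) : ∀ L : List (List ℕ), ev v L.flatten = (L.map (ev v)).prod
  | [] => rfl
  | w :: L => by simp [ev_append, ev_flatten v L]

theorem ev_elt (hv : Rels v) {gs : List ℕ} (hgs : okW gs = true) :
    ev v (elt gs) = ev v gs.reverse * ev v SW * (ev v gs.reverse)⁻¹ := by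
  rw [elt, ev_append, ev_append, ev_reverse hv hgs, inv_inv]

theorem prod_mul_prod_reverse : ∀ {l : List G}, (∀ x ∈ l, x * x = 1) → l.prod * l.reverse.prod = 1
  | [], _ => by simp
  | x :: l, hl => by
      have h1 := prod_mul_prod_reverse (l := l) fun y hy => hl y (List.mem_cons_of_mem x hy)
      rw [List.prod_cons, List.reverse_cons, List.prod_append, List.prod_singleton]
      calc x * l.prod * (l.reverse.prod * x) = x * (l.prod * l.reverse.prod) * x := by group
        _ = 1 := by rw [h1, mul_one, hl x (List.mem_cons_self ..)]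

theorem conj_central {c : G} : ∀ {w : List ℕ}, okW w = true → Rels v → (∀ g ∈ w, Commute (v g) c) →
    ev v w.reverse * c * ev v w = c := by
  intro w hw hv hc
  have : Commute (ev v w.reverse) c := by
    refine Commute.list_prod_left _ _ fun x hx => ?_
    obtain ⟨g, hg, rfl⟩ := List.mem_map.mp hx
    exact hc g (List.mem_reverse.mp hg)
  rw [this.eq, mul_assoc, ev_reverse hv hw, inv_mul_cancel, mul_one]

/-- the centre of W(E₈) dies -/
theorem z8_trivial (h : Spider v) : ev v Z8 = 1 := by
  have hv := h.rels
  set e : List ℕ → G := fun gs => ev v (elt gs) with he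
  have hv1 : ∀ (hg : List ℕ) (ns : List ℕ) (A : List (List ℕ)), okW hg = true →
      (∀ g ∈ hg, g ∈ [0, 1, 2, 3, 4, 6, 7, 11]) →
      eqB [] ns (hg.reverse ++ VW ++ hg) (A.map elt).flatten = true → (A.map e).prod = ev v VW := by
    intro hg ns A hok hmem hc
    have := eq0 hv hc
    rw [ev_append, ev_append, conj_central hok hv (fun g hgm => v_comm h (hmem g hgm)),
      ev_flatten, List.map_map] at this
    exact this.symm
  have a1 := hv1 hg1 hS1 hA1 (by decide +kernel) (by decide +kernel) hA1_check
  have a2 := hv1 hg2 hS2 hA2 (by decide +kernel) (by decide +kernel) hA2_check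
  have hF : (hF.map e).prod = ev v Z8 := by
    rw [← eq0 hv hF_check, ev_flatten, List.map_map]; rfl
  have hpair : gPairs.map (fun p => e p.1.1) = gPairs.map (fun p => e p.2.1) := by
    have hs : ∀ g ∈ gSeeds, g < 16 ∧ v g * ev v SW = ev v SW * v g := by
      intro g hg
      have hm : g ∈ [0, 1, 2, 3, 6, 7, 8, 11, 12] := hg
      exact ⟨(by decide : ∀ g ∈ [0, 1, 2, 3, 6, 7, 8, 11, 12], g < 16) g hm, (sw_comm h hm).eq⟩
    refine List.map_congr_left fun p hp => ?_
    have hok := (by decide +kernel : ∀ p ∈ gPairs, okW p.1.1 = true ∧ okW p.2.1 = true) p hp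
    simp only [he, ev_elt hv hok.1, ev_elt hv hok.2]
    exact samePt_sound hv g_check hs p hp
  have l1 : gPairs.map (fun p => p.1.1) = (hA1.take 4 ++ hA2.drop 3) ++ hA1.drop 4 := by
    decide +kernel
  have l2 : gPairs.map (fun p => p.2.1) = Y555.hF ++ (hA2.take 3).reverse := by decide +kernel
  have hh : ((hA1.take 4 ++ hA2.drop 3) ++ hA1.drop 4).map e =
      (Y555.hF ++ (hA2.take 3).reverse).map e := by
    rw [← l1, ← l2, List.map_map, List.map_map]; exact hpair
  rw [List.map_append (l₁ := hA1.take 4 ++ hA2.drop 3), List.map_append (l₁ := Y555.hF)] at hh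
  obtain ⟨hq, hr⟩ := List.append_inj hh (by rw [List.length_map, List.length_map]; decide +kernel)
  have hinv : ∀ x ∈ ((hA2.take 3).map e), x * x = 1 := by
    intro x hx
    obtain ⟨gs, hgs, rfl⟩ := List.mem_map.mp hx
    have hok := (by decide +kernel : ∀ gs ∈ hA2, okW gs = true) gs (List.mem_of_mem_take hgs)
    have hs2 : ev v SW * ev v SW = 1 := by rw [← ev_append]; exact triv0 hv ss_check
    simp only [he, ev_elt hv hok]
    calc _ = ev v gs.reverse * (ev v SW * ev v SW) * (ev v gs.reverse)⁻¹ := by group
      _ = 1 := by rw [hs2, mul_one, mul_inv_cancel]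
  have hr' : (hA1.drop 4).map e = ((hA2.take 3).map e).reverse := by rw [hr, List.map_reverse]
  have key : ev v VW * ev v VW = 1 := by rw [← ev_append]; exact triv0 hv vv_check
  nth_rewrite 1 [← a1] at key
  rw [← a2, ← List.take_append_drop 4 hA1, ← List.take_append_drop 3 hA2, List.map_append,
    List.prod_append, List.map_append, List.prod_append] at key
  have hr2 : ((hA1.drop 4).map e).prod * ((hA2.take 3).map e).prod = 1 := by
    have := prod_mul_prod_reverse (l := ((hA2.take 3).map e).reverse)
      (fun x hx => hinv x (List.mem_reverse.mp hx))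
    rw [List.reverse_reverse] at this
    rw [hr']; exact this
  rw [mul_assoc, ← mul_assoc ((hA1.drop 4).map e).prod, hr2, one_mul, ← List.prod_append,
    ← List.map_append, hq, hF] at key
  exact key

theorem seg_comm (h : Spider v) {c : ℕ} (hs : Commute (v c) (ev v SW)) (hf : Commute (v c) (v 5))
    (L : List (List ℕ × Bool)) (hL : ∀ p ∈ L, ∀ g ∈ p.1, Commute (v c) (v g)) :
    Commute (v c) (ev v (L.flatMap seg)) := by
  have hev : ∀ w : List ℕ, (∀ g ∈ w, Commute (v c) (v g)) → Commute (v c) (ev v w) := by
    intro w hw
    refine Commute.list_prod_right _ _ fun x hx => ?_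
    obtain ⟨g, hg, rfl⟩ := List.mem_map.mp hx
    exact hw g hg
  have ht : Commute (v c) (ev v TW) := by rw [TW, ev_cons]; exact hf.mul_right hs
  have ht' : Commute (v c) (ev v TW.reverse) := by
    rw [ev_reverse h.rels (by decide +kernel)]; exact ht.inv_right
  induction L with
  | nil => simp
  | cons p L ih =>
    rw [List.flatMap_cons, ev_append]
    refine Commute.mul_right ?_ (ih fun q hq => hL q (List.mem_cons_of_mem p hq))
    have hp := hL p (List.mem_cons_self ..)
    rw [seg, ev_append, ev_append]
    refine ((hev _ hp).mul_right ?_).mul_right (hev _ fun g hg => hp g (List.mem_reverse.mp hg))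
    split
    · exact ht
    · exact ht'

/-- the braid trick: if `c` centralises `y` and `b y b`, and braids with `b`, then `b y b = y` -/
theorem braid_fix {b c y : G} (hb : b * b = 1) (hc : c * c = 1) (hbc : b * c * b = c * b * c)
    (h1 : Commute c y) (h2 : Commute c (b * y * b)) : b * y * b = y := by
  have e1 : (c * b * c) * y * (c * b * c) = b * y * b := by
    calc (c * b * c) * y * (c * b * c) = c * b * (c * y) * (c * b * c) := by group
      _ = c * b * y * (c * c) * b * c := by rw [h1.eq]; group
      _ = c * (b * y * b) * c := by rw [hc, mul_one]; group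
      _ = b * y * b := by rw [h2.eq, mul_assoc, hc, mul_one]
  rw [← hbc] at e1
  have e2 : b * c * (b * y * b) * c * b = y := by
    calc b * c * (b * y * b) * c * b = b * (c * (b * y * b)) * c * b := by group
      _ = b * (b * y * b) * (c * c) * b := by rw [h2.eq]; group
      _ = (b * b) * y * (b * b) := by rw [hc, mul_one]; group
      _ = y := by rw [hb, one_mul, mul_one]
  calc b * y * b = (b * c * b) * y * (b * c * b) := e1.symm
    _ = b * c * (b * y * b) * c * b := by group
    _ = y := e2

/-- the translation `f₁ s` is trivial -/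
theorem tw_trivial (h : Spider v) : ev v TW = 1 := by
  have hv := h.rels
  have gen : ∀ (c b : ℕ) (L1 L2 : List (List ℕ × Bool)) (ns : List ℕ),
      c ∈ [8, 12] → b < 16 → adjB b c = true →
      (∀ p ∈ L1 ++ L2, ∀ g ∈ p.1, g < 16 ∧ c ≠ g ∧ adjB c g = false) →
      eqB [] ns ([b] ++ L1.flatMap seg ++ [b]) (L2.flatMap seg) = true →
      ev v (L1.flatMap seg) = ev v (L2.flatMap seg) := by
    intro c b L1 L2 ns hc hb hbc hL hcheck
    have hc16 : c < 16 ∧ c ≠ 5 ∧ adjB c 5 = false :=
      (by decide : ∀ c ∈ [8, 12], c < 16 ∧ c ≠ 5 ∧ adjB c 5 = false) c hc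
    have hs : Commute (v c) (ev v SW) :=
      sw_comm h ((by decide : ∀ c ∈ [8, 12], c ∈ [0, 1, 2, 3, 6, 7, 8, 11, 12]) c hc)
    have hf : Commute (v c) (v 5) := hv.comm c 5 hc16.1 (by decide) hc16.2.1 hc16.2.2
    have hl : ∀ p ∈ L1 ++ L2, ∀ g ∈ p.1, Commute (v c) (v g) := fun p hp g hg =>
      hv.comm c g hc16.1 (hL p hp g hg).1 (hL p hp g hg).2.1 (hL p hp g hg).2.2
    have h1 := seg_comm h hs hf L1 fun p hp => hl p (List.mem_append_left _ hp)
    have h2 := seg_comm h hs hf L2 fun p hp => hl p (List.mem_append_right _ hp)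
    have e := eq0 hv hcheck
    simp only [ev_append, ev_cons, ev_nil, mul_one] at e
    rw [← e] at h2 ⊢
    exact (braid_fix (hv.sq b hb) (hv.sq c hc16.1) (hv.braid b c hb hc16.1 hbc) h1 h2).symm
  have c3 := gen 12 11 cube_s1 cube_s2 cubeC (by decide) (by decide) (by decide) (by decide +kernel)
    cube_conj_check
  have c2 := gen 8 7 square_s1 square_s2 squareC (by decide) (by decide) (by decide)
    (by decide +kernel) square_conj_check
  have hT : ev v TW.reverse = (ev v TW)⁻¹ := ev_reverse hv (by decide +kernel)
  have p3 := eq0 hv cube_pow_check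
  have p2 := eq0 hv square_pow_check
  simp only [ev_append, ev_reverse hv (show okW cubeW = true by decide +kernel), hT, c3] at p3
  simp only [ev_append, ev_reverse hv (show okW squareW = true by decide +kernel), hT, c2] at p2
  generalize ev v TW = t at p3 p2 ⊢
  generalize ev v cubeW = a at p3
  generalize ev v squareW = b at p2
  have t3 : t * t * t = 1 := by
    have : a * (t * t * t)⁻¹ * a⁻¹ = 1 := by
      rw [mul_assoc (ev v (cube_s2.flatMap seg))] at p3
      have := p3
      simp only [mul_assoc] at this ⊢
      simpa [mul_assoc] using this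
    have h' : t⁻¹ * (t⁻¹ * t⁻¹) = 1 := by simpa using this
    simpa [mul_assoc] using congrArg (fun x => x⁻¹) h'
  have t2 : t * t = 1 := by
    have : b * (t * t)⁻¹ * b⁻¹ = 1 := by
      have := p2
      simpa [mul_assoc] using this
    have h' : t⁻¹ * t⁻¹ = 1 := by simpa using this
    simpa [mul_assoc] using congrArg (fun x => x⁻¹) h'
  rwa [t2, one_mul] at t3

theorem arm_one (h : Spider v) : v 5 = ev v ZW ∧ v 5 = ev v ZC := by
  have hs : ev v ZW = ev v SW := by rw [← sw_eq h.rels, z8_trivial h, mul_one]
  have ht := tw_trivial h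
  rw [TW, ev_cons] at ht
  have hs2 : ev v SW * ev v SW = 1 := by rw [← ev_append]; exact triv0 h.rels ss_check
  have : v 5 = ev v SW :=
    (eq_inv_of_mul_eq_one_left ht).trans (inv_eq_of_mul_eq_one_right hs2)
  exact ⟨this.trans hs.symm, (this.trans hs.symm).trans (centre_eq h).symm⟩

end

end Cfsg.Agent.Y555
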