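import Mathlib

/-!
Word-rewriting certificates and conjugation-orbit certificates for groups with sixteen
involutions satisfying the Coxeter relations of the graph Y₅₅₅.

Generators are numbered `0` (centre) and `5 * i + j` (`i < 3`, `1 ≤ j ≤ 5`, `j` = distance from the centre).
-/

namespace Cfsg.Agent.Y555

/-- adjacency in Y₅₅₅ -/
def adjB (x y : ℕ) : Bool :=
  (x == 0 && (y == 1 || y == 6 || y == 11)) || (y == 0 && (x == 1 || x == 6 || x == 11)) ||
  (x != 0 && y != 0 && (x + 1 == y || y + 1 == x) && (x - 1) / 5 == (y - 1) / 5)

/-- sixteen involutions satisfying the Coxeter relations of Y₅₅₅ -/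
structure Rels {G : Type*} [Group G] (v : ℕ → G) : Prop where
  sq : ∀ x, x < 16 → v x * v x = 1
  comm : ∀ x y, x < 16 → y < 16 → x ≠ y → adjB x y = false → v x * v y = v y * v x
  braid : ∀ x y, x < 16 → y < 16 → adjB x y = true → v x * v y * v x = v y * v x * v y

variable {G : Type*} [Group G]

/-- value of a word -/
def ev (v : ℕ → G) (w : List ℕ) : G := (w.map v).prod

@[simp] theorem ev_nil (v : ℕ → G) : ev v [] = 1 := rfl
@[simp] theorem ev_cons (v : ℕ → G) (x : ℕ) (w : List ℕ) : ev v (x :: w) = v x * ev v w := by
  simp [ev]
theorem ev_append (v : ℕ → G) (u w : List ℕ) : ev v (u ++ w) = ev v u * ev v w := by simp [ev]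

theorem ev_comp (v : ℕ → G) (σ : ℕ → ℕ) (w : List ℕ) : ev (fun x => v (σ x)) w = ev v (w.map σ) := by
  simp [ev, Function.comp_def]

/-- zipper: letters to the left are stored reversed -/
def zev (v : ℕ → G) (z : List ℕ × List ℕ) : G := ev v z.1.reverse * ev v z.2

def moveL : ℕ → List ℕ × List ℕ → List ℕ × List ℕ
  | 0, z => z
  | k + 1, (x :: l, r) => moveL k (l, x :: r)
  | _ + 1, ([], r) => ([], r)

def moveR : ℕ → List ℕ × List ℕ → List ℕ × List ℕ
  | 0, z => z
  | k + 1, (l, x :: r) => moveR k (x :: l, r)
  | _ + 1, (l, []) => (l, [])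

theorem zev_moveL (v : ℕ → G) : ∀ k z, zev v (moveL k z) = zev v z
  | 0, _ => rfl
  | k + 1, ([], _) => rfl
  | k + 1, (x :: l, r) => by
      rw [moveL, zev_moveL v k]; simp [zev, ev_append, mul_assoc]

theorem zev_moveR (v : ℕ → G) : ∀ k z, zev v (moveR k z) = zev v z
  | 0, _ => rfl
  | k + 1, (_, []) => rfl
  | k + 1, (l, x :: r) => by
      rw [moveR, zev_moveR v k]; simp [zev, ev_append, mul_assoc]

/-- the local rewrite of a step at the cursor -/
def act (rules : List (List ℕ × List ℕ)) (kind a b : ℕ) (r : List ℕ) : Option (List ℕ) :=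
  match kind with
  | 0 => match r with
    | x :: y :: t => if x == y && decide (x < 16) then some t else none
    | _ => none
  | 1 => if decide (a < 16) then some (a :: a :: r) else none
  | 2 => match r with
    | x :: y :: t =>
      if decide (x < 16) && decide (y < 16) && x != y && !adjB x y then some (y :: x :: t) else none
    | _ => none
  | 3 => match r with
    | x :: y :: x' :: t =>
      if decide (x < 16) && decide (y < 16) && x == x' && adjB x y then some (y :: x :: y :: t)
      else none
    | _ => none
  | _ => match rules[a + 32 * b]? with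
    | some (lhs, rhs) =>
      if r.take lhs.length == lhs then some (rhs ++ r.drop lhs.length) else none
    | none => none

/-- `Valid`: every rule is an equation -/
def Valid (v : ℕ → G) (rules : List (List ℕ × List ℕ)) : Prop := ∀ p ∈ rules, ev v p.1 = ev v p.2

theorem act_sound {v : ℕ → G} (hv : Rels v) {rules : List (List ℕ × List ℕ)} (hr : Valid v rules)
    {kind a b : ℕ} {r r' : List ℕ} (h : act rules kind a b r = some r') : ev v r = ev v r' := by
  unfold act at h
  split at h
  · split at h
    · rename_i x y t
      split at h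
      · rename_i hc
        simp only [Bool.and_eq_true, beq_iff_eq, decide_eq_true_eq] at hc
        cases h; obtain ⟨rfl, hx⟩ := hc
        simp [← mul_assoc, hv.sq x hx]
      · cases h
    · cases h
  · split at h
    · rename_i hc
      cases h; simp [← mul_assoc, hv.sq a (of_decide_eq_true hc)]
    · cases h
  · split at h
    · rename_i x y t
      split at h
      · rename_i hc
        simp only [Bool.and_eq_true, decide_eq_true_eq, bne_iff_ne, Bool.not_eq_true'] at hc
        cases h; obtain ⟨⟨⟨hx, hy⟩, hne⟩, ha⟩ := hc
        simp [← mul_assoc, hv.comm x y hx hy hne ha]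
      · cases h
    · cases h
  · split at h
    · rename_i x y x' t
      split at h
      · rename_i hc
        simp only [Bool.and_eq_true, beq_iff_eq, decide_eq_true_eq] at hc
        cases h; obtain ⟨⟨⟨hx, hy⟩, rfl⟩, ha⟩ := hc
        simp [← mul_assoc, hv.braid x y hx hy ha]
      · cases h
    · cases h
  · split at h
    · rename_i lhs rhs hl
      split at h
      · rename_i hc
        rw [beq_iff_eq] at hc
        cases h
        have := hr (lhs, rhs) (List.mem_of_getElem? hl)
        conv_lhs => rw [← List.take_append_drop lhs.length r, hc]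
        rw [ev_append, ev_append, this]
      · cases h
    · cases h

/-- A step packs `kind`, two arguments and a cursor movement to the left and to the right. -/
def step (rules : List (List ℕ × List ℕ)) (n : ℕ) (z : List ℕ × List ℕ) :
    Option (List ℕ × List ℕ) :=
  match moveR (n / 8192 % 1024) (moveL (n / 8388608) z) with
  | (l, r) => (act rules (n % 8) (n / 8 % 32) (n / 256 % 32) r).map fun r' => (l, r')

def runZ (rules : List (List ℕ × List ℕ)) : List ℕ → List ℕ × List ℕ → Option (List ℕ × List ℕ)
  | [], z => some z
  | n :: ns, z => match step rules n z with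
    | some z' => runZ rules ns z'
    | none => none

theorem runZ_sound {v : ℕ → G} (hv : Rels v) {rules : List (List ℕ × List ℕ)} (hr : Valid v rules) :
    ∀ {ns : List ℕ} {z z' : List ℕ × List ℕ}, runZ rules ns z = some z' → zev v z = zev v z'
  | [], z, z', h => by cases h; rfl
  | n :: ns, z, z', h => by
      rw [runZ] at h
      split at h
      · rename_i z1 hz1
        rw [← runZ_sound hv hr h]
        rw [step] at hz1
        split at hz1
        rename_i l r hm
        rw [← zev_moveL v (n / 8388608) z, ← zev_moveR v (n / 8192 % 1024), hm]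
        rw [Option.map_eq_some_iff] at hz1
        obtain ⟨r', hr', rfl⟩ := hz1
        simp [zev, act_sound hv hr hr']
      · cases h

/-- the word `w` rewrites to the empty word -/
def trivB (rules : List (List ℕ × List ℕ)) (ns w : List ℕ) : Bool :=
  match runZ rules ns ([], w) with
  | some ([], []) => true
  | _ => false

theorem triv_sound {v : ℕ → G} (hv : Rels v) {rules : List (List ℕ × List ℕ)} (hr : Valid v rules)
    {ns w : List ℕ} (h : trivB rules ns w = true) : ev v w = 1 := by
  unfold trivB at h
  split at h
  · rename_i heq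
    simpa [zev] using runZ_sound hv hr heq
  · cases h

/-- all letters are less than sixteen -/
def okW (w : List ℕ) : Bool := w.all fun x => decide (x < 16)

theorem ev_reverse {v : ℕ → G} (hv : Rels v) : ∀ {w : List ℕ}, okW w = true →
    ev v w.reverse = (ev v w)⁻¹
  | [], _ => by simp
  | x :: w, h => by
      simp only [okW, List.all_cons, Bool.and_eq_true, decide_eq_true_eq] at h
      rw [List.reverse_cons, ev_append, ev_reverse hv h.2, ev_cons, ev_cons, ev_nil, mul_one,
        mul_inv_rev, inv_eq_of_mul_eq_one_right (hv.sq x h.1)]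

/-- certificate for an equation -/
def eqB (rules : List (List ℕ × List ℕ)) (ns u w : List ℕ) : Bool :=
  okW w && trivB rules ns (u ++ w.reverse)

theorem eq_sound {v : ℕ → G} (hv : Rels v) {rules : List (List ℕ × List ℕ)} (hr : Valid v rules)
    {ns u w : List ℕ} (h : eqB rules ns u w = true) : ev v u = ev v w := by
  simp only [eqB, Bool.and_eq_true] at h
  have := triv_sound hv hr h.2
  rwa [ev_append, ev_reverse hv h.1, mul_inv_eq_one] at this

/-- a chain of derived equations, each usable by the later ones -/
def deriveB : List (List ℕ × List ℕ × List ℕ) → List (List ℕ × List ℕ) →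
    Option (List (List ℕ × List ℕ))
  | [], rules => some rules
  | (u, w, ns) :: ds, rules =>
    if eqB rules ns u w then deriveB ds (rules ++ [(u, w), (w, u)]) else none

theorem derive_sound {v : ℕ → G} (hv : Rels v) :
    ∀ {ds rules rules'}, Valid v rules → deriveB ds rules = some rules' → Valid v rules'
  | [], _, _, hr, h => by cases h; exact hr
  | (u, w, ns) :: ds, rules, rules', hr, h => by
      rw [deriveB] at h
      split at h
      · rename_i hc
        refine derive_sound hv ?_ h
        intro p hp
        rcases List.mem_append.mp hp with hp | hp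
        · exact hr p hp
        · simp only [List.mem_cons, List.not_mem_nil, or_false] at hp
          rcases hp with rfl | rfl
          · exact eq_sound hv hr hc
          · exact (eq_sound hv hr hc).symm
      · cases h

theorem valid_nil (v : ℕ → G) : Valid v [] := fun _ h => by simp at h

theorem valid_cons {v : ℕ → G} {u w : List ℕ} {rules : List (List ℕ × List ℕ)}
    (h : ev v u = ev v w) (hr : Valid v rules) : Valid v ((u, w) :: rules) := by
  intro p hp
  rcases List.mem_cons.mp hp with rfl | hp
  · exact h
  · exact hr p hp

/-! ### conjugation orbit certificates -/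

/-- an edge `(x, g, y)`: conjugation by generator `g` sends point `x` to point `y` -/
abbrev Edge := ℕ × ℕ × ℕ

/-- every edge is true of the points `P` -/
def GValid (v : ℕ → G) (P : List G) (E : List Edge) : Prop :=
  ∀ e ∈ E, e.2.1 < 16 ∧ ∃ X Y, P[e.1]? = some X ∧ P[e.2.2]? = some Y ∧ v e.2.1 * X = Y * v e.2.1

def findE (E : List Edge) (i x g : ℕ) : Option ℕ :=
  match E[i]? with
  | some (x', g', y') =>
    if g' == g && x' == x then some y' else if g' == g && y' == x then some x' else none
  | none => none

theorem findE_sound {v : ℕ → G} (hv : Rels v) {P : List G} {E : List Edge} (hE : GValid v P E)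
    {i x g y : ℕ} (h : findE E i x g = some y) :
    g < 16 ∧ ∃ X Y, P[x]? = some X ∧ P[y]? = some Y ∧ v g * X = Y * v g := by
  unfold findE at h
  split at h
  · rename_i x' g' y' hi
    obtain ⟨hg, X, Y, hX, hY, he⟩ := hE _ (List.mem_of_getElem? hi)
    split at h
    · rename_i hc
      simp only [Bool.and_eq_true, beq_iff_eq] at hc
      obtain ⟨rfl, rfl⟩ := hc; cases h
      exact ⟨hg, X, Y, hX, hY, he⟩
    · split at h
      · rename_i hc
        simp only [Bool.and_eq_true, beq_iff_eq] at hc
        obtain ⟨rfl, rfl⟩ := hc; cases h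
        refine ⟨hg, Y, X, hY, hX, ?_⟩
        have hs : v g' * v g' = 1 := hv.sq g' hg
        calc v g' * Y = v g' * (Y * v g') * v g' := by rw [mul_assoc, mul_assoc, hs, mul_one]
          _ = X * v g' := by rw [← he, ← mul_assoc (v g') (v g') X, hs, one_mul]
      · cases h
  · cases h

/-- follow `gs` from `x` using the edges indexed by `is` -/
def walk (E : List Edge) : List ℕ → List ℕ → ℕ → Option ℕ
  | [], [], x => some x
  | g :: gs, i :: is, x => match findE E i x g with
    | some y => walk E gs is y
    | none => none
  | _, _, _ => none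

theorem walk_sound {v : ℕ → G} (hv : Rels v) {P : List G} {E : List Edge} (hE : GValid v P E) :
    ∀ {gs is x y}, walk E gs is x = some y → x < P.length →
      ∃ X Y, P[x]? = some X ∧ P[y]? = some Y ∧ ev v gs.reverse * X = Y * ev v gs.reverse
  | [], [], x, y, h, hx => by
      cases h; exact ⟨P[x], P[x], List.getElem?_eq_getElem hx, List.getElem?_eq_getElem hx, by simp⟩
  | g :: gs, i :: is, x, y, h, hx => by
      rw [walk] at h
      split at h
      · rename_i z hz
        obtain ⟨hg, X, Z, hX, hZ, he⟩ := findE_sound hv hE hz
        have hzl : z < P.length := (List.getElem?_eq_some_iff.mp hZ).1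
        obtain ⟨Z', Y, hZ', hY, he'⟩ := walk_sound hv hE h hzl
        rw [hZ] at hZ'; cases hZ'
        refine ⟨X, Y, hX, hY, ?_⟩
        simp only [List.reverse_cons, ev_append, ev_cons, ev_nil, mul_one]
        rw [mul_assoc, he, ← mul_assoc, he', mul_assoc]
      · cases h
  | [], _ :: _, x, y, h, _ => by simp [walk] at h
  | _ :: _, [], x, y, h, _ => by simp [walk] at h

/-- the alternating word `h, g, h, ...` of a Coxeter relator with the first letter removed -/
def cyc (g h : ℕ) : List ℕ :=
  if adjB g h then [h, g, h, g, h] else [h, g, h]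

/-- an operation: a new point, or an edge forced by the relator of `g` and `h` -/
structure Op where
  x : ℕ
  g : ℕ
  y : ℕ
  h : ℕ
  is : List ℕ

/-- side conditions of a deduced edge -/
def dedB (o : Op) (n : ℕ) (E : List Edge) : Bool :=
  decide (o.h < 16) && o.g != o.h && decide (o.y < n) &&
    (walk E (cyc o.g o.h) o.is o.y == some o.x)

def stepOp (o : Op) (n : ℕ) (E : List Edge) : Option (ℕ × List Edge) :=
  if decide (o.g < 16) then
    match o.is with
    | [] => if o.y == n && decide (o.x < n) then some (n + 1, E ++ [(o.x, o.g, o.y)]) else none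
    | _ :: _ => if dedB o n E then some (n, E ++ [(o.x, o.g, o.y)]) else none
  else none

def runOps : List Op → ℕ → List Edge → Option (ℕ × List Edge)
  | [], n, E => some (n, E)
  | o :: os, n, E => match stepOp o n E with
    | some (n', E') => runOps os n' E'
    | none => none

theorem cyc_rev {v : ℕ → G} (hv : Rels v) {g h : ℕ} (hg : g < 16) (hh : h < 16) (hne : g ≠ h) :
    ev v (cyc g h).reverse = v g := by
  have h1 := hv.sq g hg
  have h2 := hv.sq h hh
  unfold cyc
  cases ha : adjB g h
  · simp only [Bool.false_eq_true, if_false, List.reverse_cons, List.reverse_nil, List.nil_append,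
      List.cons_append, ev_cons, ev_nil, mul_one]
    rw [hv.comm g h hg hh hne ha, ← mul_assoc, h2, one_mul]
  · simp only [if_true, List.reverse_cons, List.reverse_nil, List.nil_append, List.cons_append,
      ev_cons, ev_nil, mul_one]
    have hb := hv.braid g h hg hh ha
    calc v h * (v g * (v h * (v g * v h))) = v h * (v g * v h * v g) * v h := by group
      _ = v h * (v h * v g * v h) * v h := by rw [hb]
      _ = (v h * v h) * v g * (v h * v h) := by group
      _ = v g := by rw [h2, one_mul, mul_one]

theorem stepOp_sound {v : ℕ → G} (hv : Rels v) {o : Op} {n n' : ℕ} {P : List G}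
    {E E' : List Edge} (hn : P.length = n) (hE : GValid v P E)
    (h : stepOp o n E = some (n', E')) :
    ∃ P' : List G, P <+: P' ∧ P'.length = n' ∧ GValid v P' E' := by
  unfold stepOp at h
  split at h
  swap; · cases h
  rename_i hg
  have hg : o.g < 16 := of_decide_eq_true hg
  split at h
  · split at h
    · rename_i hc
      simp only [Bool.and_eq_true, beq_iff_eq, decide_eq_true_eq] at hc
      cases h
      have hx : o.x < P.length := hn ▸ hc.2
      refine ⟨P ++ [v o.g * P[o.x] * v o.g], List.prefix_append _ _, by simp [hn], ?_⟩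
      intro e he
      rcases List.mem_append.mp he with he | he
      · obtain ⟨hlt, X, Y, hX, hY, h'⟩ := hE e he
        have hX' := (List.getElem?_eq_some_iff.mp hX).1
        have hY' := (List.getElem?_eq_some_iff.mp hY).1
        exact ⟨hlt, X, Y, by rw [List.getElem?_append_left hX', hX],
          by rw [List.getElem?_append_left hY', hY], h'⟩
      · rw [List.mem_singleton.mp he]
        refine ⟨hg, P[o.x], v o.g * P[o.x] * v o.g, ?_, ?_, ?_⟩
        · rw [List.getElem?_append_left hx, List.getElem?_eq_getElem hx]
        · show (P ++ [_])[o.y]? = _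
          rw [hc.1, ← hn, List.getElem?_append_right le_rfl, Nat.sub_self]; rfl
        · rw [mul_assoc (v o.g * P[o.x]), hv.sq o.g hg, mul_one]
    · cases h
  · split at h
    · rename_i hc
      simp only [dedB, Bool.and_eq_true, decide_eq_true_eq, bne_iff_ne, beq_iff_eq] at hc
      cases h
      obtain ⟨⟨⟨hh, hne⟩, hy⟩, hz⟩ := hc
      obtain ⟨Y, X, hY, hX, he'⟩ := walk_sound hv hE hz (hn ▸ hy)
      rw [cyc_rev hv hg hh hne] at he'
      refine ⟨P, List.prefix_refl _, hn, ?_⟩
      intro e he
      rcases List.mem_append.mp he with he | he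
      · exact hE e he
      · rw [List.mem_singleton.mp he]
        refine ⟨hg, X, Y, hX, hY, ?_⟩
        have h1 := hv.sq o.g hg
        calc v o.g * X = v o.g * (X * v o.g) * v o.g := by rw [mul_assoc, mul_assoc, h1, mul_one]
          _ = Y * v o.g := by rw [← he', ← mul_assoc (v o.g) (v o.g) Y, h1, one_mul]
    · cases h

theorem runOps_sound {v : ℕ → G} (hv : Rels v) :
    ∀ {os : List Op} {n n' : ℕ} {P : List G} {E E' : List Edge}, P.length = n → GValid v P E →
      runOps os n E = some (n', E') → ∃ P' : List G, P <+: P' ∧ GValid v P' E'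
  | [], _, _, P, _, _, hn, hE, h => by cases h; exact ⟨P, List.prefix_refl _, hE⟩
  | o :: os, n, n', P, E, E', hn, hE, h => by
      rw [runOps] at h
      split at h
      · rename_i n1 E1 h1
        obtain ⟨P1, hp1, hn1, hE1⟩ := stepOp_sound hv hn hE h1
        obtain ⟨P2, hp2, hE2⟩ := runOps_sound hv hn1 hE1 h
        exact ⟨P2, hp1.trans hp2, hE2⟩
      · cases h

/-- operations, then pairs of walks from the base point ending at the same point -/
def samePtB (os : List Op) (E0 : List Edge) (ps : List ((List ℕ × List ℕ) × (List ℕ × List ℕ))) : Bool :=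
  match runOps os 1 E0 with
  | some (_, E) => ps.all fun p =>
      match walk E p.1.1 p.1.2 0, walk E p.2.1 p.2.2 0 with
      | some x, some y => x == y
      | _, _ => false
  | none => false

theorem samePt_sound {v : ℕ → G} (hv : Rels v) {s : G} {os : List Op} {gens : List ℕ}
    {ps : List ((List ℕ × List ℕ) × (List ℕ × List ℕ))}
    (h : samePtB os (gens.map fun g => (0, g, 0)) ps = true)
    (hs : ∀ g ∈ gens, g < 16 ∧ v g * s = s * v g) :
    ∀ p ∈ ps, ev v p.1.1.reverse * s * (ev v p.1.1.reverse)⁻¹ =
      ev v p.2.1.reverse * s * (ev v p.2.1.reverse)⁻¹ := by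
  unfold samePtB at h
  split at h
  swap; · cases h
  rename_i n E hr
  have h0 : GValid v [s] (gens.map fun g => (0, g, 0)) := by
    intro e he
    obtain ⟨g, hg, rfl⟩ := List.mem_map.mp he
    exact ⟨(hs g hg).1, s, s, rfl, rfl, (hs g hg).2⟩
  obtain ⟨P, hP, hE⟩ := runOps_sound hv (P := [s]) rfl h0 hr
  have hP0 : P[0]? = some s := by
    obtain ⟨t, rfl⟩ := hP; rfl
  have hlen : 0 < P.length := (List.getElem?_eq_some_iff.mp hP0).1
  intro p hp
  have := List.all_eq_true.mp h p hp
  split at this
  · rename_i x y hx hy
    rw [beq_iff_eq] at this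
    subst this
    obtain ⟨S1, X, hS1, hX, e1⟩ := walk_sound hv hE hx hlen
    obtain ⟨S2, Y, hS2, hY, e2⟩ := walk_sound hv hE hy hlen
    rw [hP0] at hS1 hS2; cases hS1; cases hS2
    rw [hX] at hY; cases hY
    rw [e1, e2]; group
  · cases this

end Cfsg.Agent.Y555
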