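import Cfsg.Agent.Y555.Core

/-! words (generated certificate data) -/

set_option maxRecDepth 20000

namespace Cfsg.Agent.Y555

def SP : List ℕ :=
  [0, 1, 2, 0, 6, 7, 0, 11, 12, 0, 1, 2, 0, 6, 7, 0, 11, 12, 0, 1, 2, 0, 6, 7, 0, 11, 12, 0, 1, 2, 0, 6, 7, 0, 11, 12, 0, 1, 2, 0, 6, 7, 0, 11, 12, 0, 1, 2, 0, 6, 7, 0, 11, 12, 0, 1, 2, 0, 6, 7, 0, 11, 12, 0, 1, 2, 0, 6, 7, 0, 11, 12, 0, 1, 2, 0, 6, 7, 0, 11, 12, 0, 1, 2, 0, 6, 7, 0, 11, 12]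

def ZW : List ℕ :=
  [0, 1, 6, 11, 2, 7, 3, 0, 1, 6, 11, 2, 7, 3, 0, 1, 6, 11, 2, 7, 3, 0, 1, 6, 11, 2, 7, 3, 0, 1, 6, 11, 2, 7, 3, 0, 1, 6, 11, 2, 7, 3, 0, 1, 6, 11, 2, 7, 3, 0, 1, 6, 11, 2, 7, 3, 0, 1, 6, 11, 2, 7, 3]

def ZC : List ℕ :=
  [0, 1, 11, 6, 2, 12, 3, 0, 1, 11, 6, 2, 12, 3, 0, 1, 11, 6, 2, 12, 3, 0, 1, 11, 6, 2, 12, 3, 0, 1, 11, 6, 2, 12, 3, 0, 1, 11, 6, 2, 12, 3, 0, 1, 11, 6, 2, 12, 3, 0, 1, 11, 6, 2, 12, 3, 0, 1, 11, 6, 2, 12, 3]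

def VW : List ℕ :=
  [0, 6, 1, 11, 7, 2, 8, 0, 6, 1, 11, 7, 2, 8, 0, 6, 1, 11, 7, 2, 8, 0, 6, 1, 11, 7, 2, 8, 0, 6, 1, 11, 7, 2, 8, 0, 6, 1, 11, 7, 2, 8, 0, 6, 1, 11, 7, 2, 8, 0, 6, 1, 11, 7, 2, 8, 0, 6, 1, 11, 7, 2, 8]

def VC : List ℕ :=
  [0, 6, 11, 1, 7, 12, 8, 0, 6, 11, 1, 7, 12, 8, 0, 6, 11, 1, 7, 12, 8, 0, 6, 11, 1, 7, 12, 8, 0, 6, 11, 1, 7, 12, 8, 0, 6, 11, 1, 7, 12, 8, 0, 6, 11, 1, 7, 12, 8, 0, 6, 11, 1, 7, 12, 8, 0, 6, 11, 1, 7, 12, 8]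

def SW : List ℕ :=
  [4, 3, 2, 1, 0, 6, 7, 11, 0, 1, 2, 3, 4, 6, 0, 1, 2, 3, 11, 0, 1, 2, 6, 0, 1, 7, 6, 11, 0, 11, 6, 7, 1, 0, 6, 2, 1, 0, 11, 3, 2, 1, 0, 6, 4, 3, 2, 1, 0, 11, 7, 6, 0, 1, 2, 3, 4]

def Z8 : List ℕ := ZW ++ [4] ++ ZW ++ [4] ++ ZW ++ [4]

def TW : List ℕ := 5 :: SW

/-- conjugate of `SW` by the reversed path -/
def elt (gs : List ℕ) : List ℕ := gs.reverse ++ SW ++ gs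

/-- a conjugate of `TW` or of its inverse -/
def seg (p : List ℕ × Bool) : List ℕ := p.1 ++ (if p.2 then TW else TW.reverse) ++ p.1.reverse

end Cfsg.Agent.Y555
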